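import Cfsg.Agent.H175.Ore.SymRowsB
import Cfsg.Agent.H175.Ore.AltRows
import Cfsg.Agent.H348.PPD.Dich

/-!
# The characters of degree at most 1728 of the alternating group of degree 12 (helper175)
-/

set_option autoImplicit false

namespace Cfsg.Agent.H175.Ore.AltRowsB

open Finset Cfsg Cfsg.Agent.H614 Cfsg.Agent.H175.Ore.SymTab Cfsg.Agent.Characters.Core
open Cfsg.Agent.CpAutHN.Alt (A12 cy x1 x1_mem t2 t2_mem s1 s1_mem)
open Cfsg.Agent.H175.Ore.AltRows
open Equiv.Perm (mem_alternatingGroup)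

/-- the values on the symmetric group -/
def vQ (c : ℂ) (f : Equiv.Perm (Fin 12) → ℂ) : List ℂ := [f 1, f x1 - f x4, f t2 - f t6, c * f x11]

theorem sym_casesB {ψ : Equiv.Perm (Fin 12) → ℂ} (hψ : IsIrrCharacter (Equiv.Perm (Fin 12)) ψ) :
    (∃ z : ℤ, 3456 < z ∧ ψ 1 = z) ∨ (ψ g2 ≠ 0 ∧ ((∃ z : ℤ, 1728 < z ∧ ψ 1 = z) ∨
      ∃ v ∈ rowsB, vQ 2 ψ = v.map (Int.cast))) ∨ (∃ v ∈ rowsH, vQ 1 ψ = v.map (Int.cast)) := by
  obtain ⟨β, hβ, hs, rfl⟩ := irr_eq (m := 12) (by rw [Fintype.card_fin]) hψ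
  rw [Fintype.card_fin, sum12] at hs
  have h := of_en en_chkB hβ hs
  have e1 := ch_val (β := β) ty_one' (by decide) (by rw [hs, sum12]; rfl)
  have e2 := ch_val (β := β) ty_g2 (by decide) (by rw [hs, sum12]; rfl)
  have e3 := ch_val (β := β) ty_x1 (by decide) (by rw [hs, sum12]; rfl)
  have e4 := ch_val (β := β) ty_x4 (by decide) (by rw [hs, sum12]; rfl)
  have e5 := ch_val (β := β) ty_t2 (by decide) (by rw [hs, sum12]; rfl)
  have e6 := ch_val (β := β) ty_t6 (by decide) (by rw [hs, sum12]; rfl)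
  have e7 := ch_val (β := β) ty_x11 (by decide) (by rw [hs, sum12]; rfl)
  rw [chkB, Bool.or_eq_true, Bool.or_eq_true, Bool.and_eq_true, Bool.or_eq_true, decide_eq_true_eq,
    decide_eq_true_eq, decide_eq_true_eq, decide_eq_true_eq, decide_eq_true_eq] at h
  rcases h with (h | ⟨h, h' | h'⟩) | h'
  · exact Or.inl ⟨_, h, e1⟩
  · refine Or.inr (Or.inl ⟨?_, Or.inl ⟨_, h', e1⟩⟩)
    rw [e2]
    exact_mod_cast h
  · refine Or.inr (Or.inl ⟨?_, Or.inr ⟨_, h', ?_⟩⟩)
    · rw [e2]
      exact_mod_cast h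
    · rw [vQ, e1, e3, e4, e5, e6, e7, vecB]
      simp
  · refine Or.inr (Or.inr ⟨_, h', ?_⟩)
    rw [vQ, e1, e3, e4, e5, e6, e7, vecB]
    simp

/-- the rows of the alternating group -/
def rows24 : List (List ℤ) := [[1, 0, 0, 2], [132, 0, 0, 0], [11, 9, 8, 0], [54, 27, 16, -2], [55, 27, 24, 0],
  [154, 45, 48, 0], [165, 54, 16, 0], [275, 54, 40, 0], [297, 27, 64, 0], [320, 108, 64, 2], [330, 81, -16, 0],
  [462, 81, -32, 0], [616, 108, 32, 0], [891, 162, 120, 0], [945, 189, 64, -2], [1050, 108, -80, -1], [1155, 27, 96, 0],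
  [1408, 108, 128, 0], [1728, 216, -64, 2], [462, -54, -16, 0], [1320, -54, 96, 0], [1485, -27, -16, 0],
  [1650, -27, 80, 0], [1320, -81, -32, 0]]

theorem mem_rows24 : ∀ v ∈ rowsB, v ∈ rows24 := by decide

/-- the value functions on the alternating group -/
def vB (f : A12 → ℂ) : List ℂ :=
  [f 1, f ⟨x1, x1_mem⟩ - f ⟨x4, x4_mem⟩, f ⟨t2, t2_mem⟩ - f ⟨t6, t6_mem⟩, f ⟨x11, x11_mem⟩ + f ⟨x11, x11_mem⟩⁻¹]

/-- an odd permutation which commutes with `x4` -/
def o4 : Equiv.Perm (Fin 12) := cy [0, 3] * cy [1, 4] * cy [2, 5]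
/-- an odd permutation which inverts `x11` -/
def o11 : Equiv.Perm (Fin 12) := cy [1, 10] * cy [2, 9] * cy [3, 8] * cy [4, 7] * cy [5, 6]

theorem o4_not_mem : o4 ∉ alternatingGroup (Fin 12) := by rw [mem_alternatingGroup]; decide +kernel
theorem o11_not_mem : o11 ∉ alternatingGroup (Fin 12) := by rw [mem_alternatingGroup]; decide +kernel

theorem ty_x11_inv : ty x11⁻¹ = ty x11 := by
  rw [ty_x11]
  exact ty_of_prime (p := 11) (k := 1) (by norm_num) (by decide +kernel) (by decide +kernel)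

/-- **The characters of degree at most 1728 of the alternating group of degree 12.** -/
theorem exists_rowB {φ : A12 → ℂ} (hφ : IsIrrCharacter A12 φ) {e : ℕ} (he : φ 1 = e) (h1728 : e ≤ 1728) :
    ∃ v ∈ rows24, vB φ = v.map (Int.cast) := by
  classical
  have hnt : Nontrivial (Fin 12) := Fin.nontrivial_iff_two_le.2 (by norm_num)
  rcases Cfsg.Agent.H348.PPD.Dich.dich (alternatingGroup (Fin 12)) alternatingGroup.index_eq_two hφ with
    ⟨ψ, hψ, h⟩ | ⟨ψ, hψ, hv, h⟩
  · have h1 : ψ 1 = e := by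
      have := h 1
      rw [OneMemClass.coe_one] at this
      rw [this, he]
    rcases sym_casesB hψ with ⟨z, hz, hz1⟩ | ⟨-, ⟨z, hz, hz1⟩ | ⟨v, hv, hv1⟩⟩ | ⟨v, hv, hv1⟩
    · exfalso
      rw [h1] at hz1
      have : (e : ℤ) = z := by exact_mod_cast hz1
      omega
    · exfalso
      rw [h1] at hz1
      have : (e : ℤ) = z := by exact_mod_cast hz1
      omega
    · refine ⟨v, mem_rows24 v hv, ?_⟩
      have h2 : ψ x11⁻¹ = ψ x11 := by
        obtain ⟨c, hc⟩ := isConj_iff.1 ((ty_eq_iff _ _).1 ty_x11_inv)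
        have h3 := isIrr_isClassFunction hψ x11⁻¹ c
        rw [hc] at h3
        exact h3.symm
      rw [← hv1, vB, vQ, ← h 1, ← h ⟨x1, x1_mem⟩, ← h ⟨x4, x4_mem⟩, ← h ⟨t2, t2_mem⟩, ← h ⟨t6, t6_mem⟩,
        ← h ⟨x11, x11_mem⟩, ← h (⟨x11, x11_mem⟩⁻¹)]
      change [ψ 1, ψ x1 - ψ x4, ψ t2 - ψ t6, ψ x11 + ψ x11⁻¹] = _
      rw [h2, two_mul]
    · exfalso
      have h3 : ∀ v ∈ rowsH, 1728 < v.headD 0 := by decide
      have h4 := h3 v hv
      cases v with
      | nil => simp at h4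
      | cons a l =>
        rw [vQ, List.map_cons] at hv1
        have h5 : ψ 1 = (a : ℂ) := (List.cons.inj hv1).1
        rw [h1] at h5
        have : (e : ℤ) = a := by exact_mod_cast h5
        rw [List.headD_cons] at h4
        omega
  · -- values
    have hodd : ∀ {g : Equiv.Perm (Fin 12)} (_ : g ∉ alternatingGroup (Fin 12)) {x y : Equiv.Perm (Fin 12)}
        (hx : x ∈ alternatingGroup (Fin 12)) (hy : y ∈ alternatingGroup (Fin 12)) (_ : g * x = y * g),
        ψ x = φ ⟨x, hx⟩ + φ ⟨y, hy⟩ := by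
      intro g hg x y hx hy hgx
      have h2 := (h g hg).1 ⟨x, hx⟩
      rw [h2]
      congr 2
      apply Subtype.ext
      rw [MulAut.conjNormal_apply]
      change g * x * g⁻¹ = y
      rw [hgx, mul_inv_cancel_right]
    have e0 : ψ 1 = 2 * φ 1 := by
      have h2 := hodd g2_not_mem (one_mem _) (one_mem _) (by rw [mul_one, one_mul])
      rw [h2, two_mul]
      rfl
    have e1 := hodd g2_not_mem x1_mem x1_mem (by decide +kernel)
    have e2 := hodd o4_not_mem x4_mem x4_mem (by decide +kernel)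
    have e3 := hodd g2_not_mem t2_mem t2_mem (by decide +kernel)
    have e4 := hodd g2_not_mem t6_mem t6_mem (by decide +kernel)
    have e5 := hodd o11_not_mem x11_mem (inv_mem x11_mem) (by decide +kernel)
    rcases sym_casesB hψ with ⟨z, hz, hz1⟩ | ⟨h2, -⟩ | ⟨v, hv, hv1⟩
    · exfalso
      rw [e0, he] at hz1
      have : (2 * e : ℤ) = z := by exact_mod_cast hz1
      omega
    · exact absurd (hv g2 g2_not_mem) h2
    · have h5 : φ ⟨x11, x11_mem⟩ + φ ⟨x11, x11_mem⟩⁻¹ = ψ x11 := e5.symm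
      simp only [rowsH, List.mem_cons, List.not_mem_nil, or_false] at hv
      rcases hv with rfl | rfl
      · refine ⟨[1050, 108, -80, -1], by decide, ?_⟩
        simp only [vQ, List.map_cons, List.map_nil, List.cons.injEq, and_true, one_mul] at hv1
        obtain ⟨k1, k2, k3, k4⟩ := hv1
        rw [e0] at k1
        rw [e1, e2] at k2
        rw [e3, e4] at k3
        rw [vB, h5, k4]
        push_cast at k1 k2 k3
        simp only [List.map_cons, List.map_nil, List.cons.injEq, and_true]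
        refine ⟨?_, ?_, ?_⟩ <;> push_cast
        · linear_combination (1 / 2 : ℂ) * k1
        · linear_combination (1 / 2 : ℂ) * k2
        · linear_combination (1 / 2 : ℂ) * k3
      · refine ⟨[1320, -81, -32, 0], by decide, ?_⟩
        simp only [vQ, List.map_cons, List.map_nil, List.cons.injEq, and_true, one_mul] at hv1
        obtain ⟨k1, k2, k3, k4⟩ := hv1
        rw [e0] at k1
        rw [e1, e2] at k2
        rw [e3, e4] at k3
        rw [vB, h5, k4]
        push_cast at k1 k2 k3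
        simp only [List.map_cons, List.map_nil, List.cons.injEq, and_true]
        refine ⟨?_, ?_, ?_⟩ <;> push_cast
        · linear_combination (1 / 2 : ℂ) * k1
        · linear_combination (1 / 2 : ℂ) * k2
        · linear_combination (1 / 2 : ℂ) * k3

/-- the linear forms -/
noncomputable def LB : Fin 4 → (A12 → ℂ) →+ ℂ := fun j =>
  { toFun := fun f => (vB f).getD j 0
    map_zero' := by fin_cases j <;> simp [vB]
    map_add' := fun f g => by fin_cases j <;> simp [vB] <;> ring }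

theorem LB_apply (j : Fin 4) (f : A12 → ℂ) : LB j f = (vB f).getD j 0 := rfl

/-- **Characters of degree at most 1728 of the alternating group of degree 12.** -/
theorem exists_combB {θ : A12 → ℂ} (hθ : IsCharacter A12 θ) {d : ℕ} (hd : θ 1 = d) (h1728 : d ≤ 1728) :
    ∃ n : Fin 24 → ℕ, ∀ j : Fin 4, (vB θ).getD j 0 = (((∑ i, (n i : ℤ) * (rows24.getD i []).getD j 0 : ℤ)) : ℂ) := by
  obtain ⟨n, hn⟩ := comb_of hθ hd LB (fun (i : Fin 24) (j : Fin 4) => (((rows24.getD i []).getD j 0 : ℤ) : ℂ)) (by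
    intro φ hφ e he hed
    obtain ⟨v, hv, hv1⟩ := exists_rowB hφ he (hed.trans h1728)
    obtain ⟨i, hi, rfl⟩ := List.getElem_of_mem hv
    refine ⟨⟨i, hi⟩, fun j => ?_⟩
    rw [LB_apply, hv1, List.getD_eq_getElem _ _ hi]
    generalize rows24[i] = v
    cases h : v[(j : ℕ)]? with
    | none => simp [List.getD_eq_getElem?_getD, h]
    | some a => simp [List.getD_eq_getElem?_getD, h])
  refine ⟨n, fun j => ?_⟩
  rw [← LB_apply, hn j]
  push_cast
  rfl

end Cfsg.Agent.H175.Ore.AltRowsB
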