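import Cfsg.Agent.H175.Ore.AltRowsB

/-!
# The numerical part for degree 1728 of `HN` (helper175)
-/

set_option autoImplicit false

namespace Cfsg.Agent.H175.Ore.HNNumB

open Cfsg.Agent.H175.Ore.AltRowsB (rows24)
open Cfsg.Agent.H175.Ore.SymTab (allTo allTo_spec)

/-- degree, two conditions, value -/
abbrev Row : Type := ℕ × ℤ × ℤ × ℤ

/-- total of degrees -/
def totN : List ℕ → List Row → ℕ
  | n :: ns, r :: rs => n * r.1 + totN ns rs
  | _, _ => 0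

/-- total of a coordinate -/
def tot (f : Row → ℤ) : List ℕ → List Row → ℤ
  | n :: ns, r :: rs => n * f r + tot f ns rs
  | _, _ => 0

theorem tot_nonneg {f : Row → ℤ} : ∀ {rs : List Row} (ns : List ℕ), (∀ r ∈ rs, 0 ≤ f r) → 0 ≤ tot f ns rs := by
  intro rs
  induction rs with
  | nil => intro ns _; cases ns <;> simp [tot]
  | cons r rs ih =>
    intro ns h
    cases ns with
    | nil => simp [tot]
    | cons n ns =>
      rw [tot]
      have h1 := ih ns fun r hr => h r (List.mem_cons_of_mem _ hr)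
      have h2 := h r List.mem_cons_self
      positivity

/-- enumeration of the multiplicities -/
def go (P : ℕ → ℤ → Bool) : List Row → ℕ → ℤ → ℤ → ℤ → Bool
  | [], B, s1, s2, y => bif decide (s1 = 0) && decide (s2 = 0) then P B y else true
  | r :: rs, B, s1, s2, y =>
      bif decide (0 < s1) && (r :: rs).all (fun r => decide (0 ≤ r.2.1)) then true else
      allTo (fun c => go P rs (B - c * r.1) (s1 + c * r.2.1) (s2 + c * r.2.2.1) (y + c * r.2.2.2)) (B / r.1 + 1)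

theorem go_spec {P : ℕ → ℤ → Bool} : ∀ (rs : List Row) (ns : List ℕ) (B : ℕ) (s1 s2 y : ℤ), ns.length = rs.length →
    (∀ r ∈ rs, 0 < r.1) → go P rs B s1 s2 y = true → totN ns rs ≤ B → s1 + tot (fun r => r.2.1) ns rs = 0 →
    s2 + tot (fun r => r.2.2.1) ns rs = 0 → P (B - totN ns rs) (y + tot (fun r => r.2.2.2) ns rs) = true := by
  intro rs
  induction rs with
  | nil =>
    intro ns B s1 s2 y hl _ h _ h1 h2
    rw [List.length_nil, List.length_eq_zero_iff] at hl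
    subst hl
    simp only [tot, totN, add_zero] at h1 h2 ⊢
    subst h1
    subst h2
    simpa [go] using h
  | cons r rs ih =>
    intro ns B s1 s2 y hl hpos h hB h1 h2
    match ns, hl with
    | n :: ns, hl =>
      rw [go] at h
      have hr := hpos r List.mem_cons_self
      cases hc : (decide (0 < s1) && (r :: rs).all (fun r => decide (0 ≤ r.2.1))) with
      | true =>
        exfalso
        rw [Bool.and_eq_true, decide_eq_true_eq, List.all_eq_true] at hc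
        have h3 := tot_nonneg (f := fun r => r.2.1) (n :: ns) fun r hr => of_decide_eq_true (hc.2 r hr)
        have h4 := hc.1
        omega
      | false =>
        rw [hc, cond_false] at h
        rw [totN] at hB
        have hn : n < B / r.1 + 1 := by
          rw [Nat.lt_succ_iff, Nat.le_div_iff_mul_le hr]
          omega
        have h3 := allTo_spec h n hn
        have h4 := ih ns (B - n * r.1) _ _ _ (by simpa using hl) (fun r hr => hpos r (List.mem_cons_of_mem _ hr)) h3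
          (by omega) (by rw [tot] at h1; rw [← h1]; ring) (by rw [tot] at h2; rw [← h2]; ring)
        rw [totN, tot]
        have e1 : B - (n * r.1 + totN ns rs) = B - n * r.1 - totN ns rs := by omega
        have e2 : y + (n * r.2.2.2 + tot (fun r => r.2.2.2) ns rs) =
            y + n * r.2.2.2 + tot (fun r => r.2.2.2) ns rs := by ring
        rw [e1, e2]
        exact h4

/-- the rows, negative ones first -/
def rws : List Row := [(1320, -81, -32, 0), (1650, -27, 80, 0), (1485, -27, -16, 0), (1320, -54, 96, 0),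
  (462, -54, -16, 0), (1728, 216, -64, 2), (1408, 108, 128, 0), (1155, 27, 96, 0), (1050, 108, -80, -1),
  (945, 189, 64, -2), (891, 162, 120, 0), (616, 108, 32, 0), (462, 81, -32, 0), (330, 81, -16, 0), (320, 108, 64, 2),
  (297, 27, 64, 0), (275, 54, 40, 0), (165, 54, 16, 0), (154, 45, 48, 0), (55, 27, 24, 0), (54, 27, 16, -2),
  (11, 9, 8, 0)]

/-- the final check: the number of trivial constituents is too large -/
def PB (B : ℕ) (y : ℤ) : Bool := decide (9 < 2 * ((B % 132 : ℕ) : ℤ) + y)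

theorem go_rws : go PB rws 1728 0 0 0 = true := by decide +kernel

/-- a sum over 24 indices -/
theorem sum24 (f : Fin 24 → ℤ) : ∑ i, f i = f 0 + f 1 + f 2 + f 3 + f 4 + f 5 + f 6 + f 7 + f 8 + f 9 + f 10 + f 11 + f 12 + f 13 + f 14 + f 15 + f 16 + f 17 + f 18 + f 19 + f 20 + f 21 + f 22 + f 23 := by
  simp only [Fin.sum_univ_castSucc, Fin.sum_univ_zero, zero_add]
  rfl

/-- the multiplicities in the order of `rws` -/
def nsl (n : Fin 24 → ℕ) : List ℕ := [n 23, n 22, n 21, n 20, n 19, n 18, n 17, n 16, n 15, n 14, n 13, n 12, n 11, n 10, n 9, n 8, n 7, n 6, n 5, n 4, n 3, n 2]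

theorem col0 (n : Fin 24 → ℕ) : ∑ i : Fin 24, (n i : ℤ) * (rows24.getD i []).getD ((0 : Fin 4) : ℕ) 0 =
    (n 0 : ℤ) + 132 * n 1 + (totN (nsl n) rws : ℕ) := by
  rw [sum24]
  change (n 0 : ℤ) * 1 + (n 1 : ℤ) * 132 + (n 2 : ℤ) * 11 + (n 3 : ℤ) * 54 + (n 4 : ℤ) * 55 + (n 5 : ℤ) * 154 + (n 6 : ℤ) * 165 + (n 7 : ℤ) * 275 + (n 8 : ℤ) * 297 + (n 9 : ℤ) * 320 + (n 10 : ℤ) * 330 + (n 11 : ℤ) * 462 + (n 12 : ℤ) * 616 + (n 13 : ℤ) * 891 + (n 14 : ℤ) * 945 + (n 15 : ℤ) * 1050 + (n 16 : ℤ) * 1155 + (n 17 : ℤ) * 1408 + (n 18 : ℤ) * 1728 + (n 19 : ℤ) * 462 + (n 20 : ℤ) * 1320 + (n 21 : ℤ) * 1485 + (n 22 : ℤ) * 1650 + (n 23 : ℤ) * 1320 = _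
  simp only [nsl, rws, totN, tot]
  push_cast
  ring

theorem col1 (n : Fin 24 → ℕ) : ∑ i : Fin 24, (n i : ℤ) * (rows24.getD i []).getD ((1 : Fin 4) : ℕ) 0 =
    tot (fun r => r.2.1) (nsl n) rws := by
  rw [sum24]
  change (n 0 : ℤ) * 0 + (n 1 : ℤ) * 0 + (n 2 : ℤ) * 9 + (n 3 : ℤ) * 27 + (n 4 : ℤ) * 27 + (n 5 : ℤ) * 45 + (n 6 : ℤ) * 54 + (n 7 : ℤ) * 54 + (n 8 : ℤ) * 27 + (n 9 : ℤ) * 108 + (n 10 : ℤ) * 81 + (n 11 : ℤ) * 81 + (n 12 : ℤ) * 108 + (n 13 : ℤ) * 162 + (n 14 : ℤ) * 189 + (n 15 : ℤ) * 108 + (n 16 : ℤ) * 27 + (n 17 : ℤ) * 108 + (n 18 : ℤ) * 216 + (n 19 : ℤ) * (-54) + (n 20 : ℤ) * (-54) + (n 21 : ℤ) * (-27) + (n 22 : ℤ) * (-27) + (n 23 : ℤ) * (-81) = _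
  simp only [nsl, rws, totN, tot]
  push_cast
  ring

theorem col2 (n : Fin 24 → ℕ) : ∑ i : Fin 24, (n i : ℤ) * (rows24.getD i []).getD ((2 : Fin 4) : ℕ) 0 =
    tot (fun r => r.2.2.1) (nsl n) rws := by
  rw [sum24]
  change (n 0 : ℤ) * 0 + (n 1 : ℤ) * 0 + (n 2 : ℤ) * 8 + (n 3 : ℤ) * 16 + (n 4 : ℤ) * 24 + (n 5 : ℤ) * 48 + (n 6 : ℤ) * 16 + (n 7 : ℤ) * 40 + (n 8 : ℤ) * 64 + (n 9 : ℤ) * 64 + (n 10 : ℤ) * (-16) + (n 11 : ℤ) * (-32) + (n 12 : ℤ) * 32 + (n 13 : ℤ) * 120 + (n 14 : ℤ) * 64 + (n 15 : ℤ) * (-80) + (n 16 : ℤ) * 96 + (n 17 : ℤ) * 128 + (n 18 : ℤ) * (-64) + (n 19 : ℤ) * (-16) + (n 20 : ℤ) * 96 + (n 21 : ℤ) * (-16) + (n 22 : ℤ) * 80 + (n 23 : ℤ) * (-32) = _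
  simp only [nsl, rws, totN, tot]
  push_cast
  ring

theorem col3 (n : Fin 24 → ℕ) : ∑ i : Fin 24, (n i : ℤ) * (rows24.getD i []).getD ((3 : Fin 4) : ℕ) 0 =
    2 * (n 0 : ℤ) + tot (fun r => r.2.2.2) (nsl n) rws := by
  rw [sum24]
  change (n 0 : ℤ) * 2 + (n 1 : ℤ) * 0 + (n 2 : ℤ) * 0 + (n 3 : ℤ) * (-2) + (n 4 : ℤ) * 0 + (n 5 : ℤ) * 0 + (n 6 : ℤ) * 0 + (n 7 : ℤ) * 0 + (n 8 : ℤ) * 0 + (n 9 : ℤ) * 2 + (n 10 : ℤ) * 0 + (n 11 : ℤ) * 0 + (n 12 : ℤ) * 0 + (n 13 : ℤ) * 0 + (n 14 : ℤ) * (-2) + (n 15 : ℤ) * (-1) + (n 16 : ℤ) * 0 + (n 17 : ℤ) * 0 + (n 18 : ℤ) * 2 + (n 19 : ℤ) * 0 + (n 20 : ℤ) * 0 + (n 21 : ℤ) * 0 + (n 22 : ℤ) * 0 + (n 23 : ℤ) * 0 = _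
  simp only [nsl, rws, totN, tot]
  push_cast
  ring

/-- **The numerical part.** -/
theorem false_of {n : Fin 24 → ℕ} {e : ℤ}
    (h0 : (1728 : ℤ) = ∑ i : Fin 24, (n i : ℤ) * (rows24.getD i []).getD ((0 : Fin 4) : ℕ) 0)
    (h1 : (0 : ℤ) = ∑ i : Fin 24, (n i : ℤ) * (rows24.getD i []).getD ((1 : Fin 4) : ℕ) 0)
    (h2 : (0 : ℤ) = ∑ i : Fin 24, (n i : ℤ) * (rows24.getD i []).getD ((2 : Fin 4) : ℕ) 0)
    (h3 : e = ∑ i : Fin 24, (n i : ℤ) * (rows24.getD i []).getD ((3 : Fin 4) : ℕ) 0) (he : e ≤ 9) : False := by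
  rw [col0] at h0
  rw [col1] at h1
  rw [col2] at h2
  rw [col3] at h3
  have h4 := go_spec rws (nsl n) 1728 0 0 0 rfl (by decide) go_rws (by omega) (by rw [zero_add, ← h1])
    (by rw [zero_add, ← h2])
  rw [zero_add, PB, decide_eq_true_eq] at h4
  have h5 : 1728 - totN (nsl n) rws = n 0 + 132 * n 1 := by omega
  rw [h5] at h4
  have h6 : (n 0 + 132 * n 1) % 132 ≤ n 0 := by
    rw [Nat.add_mul_mod_self_left]
    exact Nat.mod_le _ _
  omega

end Cfsg.Agent.H175.Ore.HNNumB
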