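import Cfsg.Agent.H175.Ore.SymTab

/-!
# The characters of degree at most 3456 of the symmetric group of degree 12 (helper175)
-/

set_option autoImplicit false

namespace Cfsg.Agent.H175.Ore.SymTab

open Finset Cfsg.Agent.H614

/-- the rows `(χ(1), χ(3) - χ(3^4), χ(2^2) - χ(2^6), 2 χ(11))` -/
def rowsB : List (List ℤ) := [[1, 0, 0, 2], [11, 9, 8, 0], [54, 27, 16, -2], [55, 27, 24, 0], [132, 0, 0, 0],
  [154, 45, 48, 0], [165, 54, 16, 0], [275, 54, 40, 0], [297, 27, 64, 0], [320, 108, 64, 2], [330, 81, -16, 0],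
  [462, -54, -16, 0], [462, 81, -32, 0], [616, 108, 32, 0], [891, 162, 120, 0], [945, 189, 64, -2], [1155, 27, 96, 0],
  [1320, -54, 96, 0], [1408, 108, 128, 0], [1485, -27, -16, 0], [1650, -27, 80, 0], [1728, 216, -64, 2]]

/-- the rows of the self-conjugate characters `(χ(1), χ(3) - χ(3^4), χ(2^2) - χ(2^6), χ(11))` -/
def rowsH : List (List ℤ) := [[2100, 216, -160, -1], [2640, -162, -64, 0]]

/-- the values of a character -/
def vecB (c : ℤ) (b : List ℕ) : List ℤ :=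
  [ev 12 [] 12 b, ev 12 [3] 9 b - ev 12 [3, 3, 3, 3] 0 b, ev 12 [2, 2] 8 b - ev 12 [2, 2, 2, 2, 2, 2] 0 b,
    c * ev 12 [11] 1 b]

/-- the check -/
def chkB (b : List ℕ) : Bool :=
  decide (3456 < ev 12 [] 12 b) || (decide (ev 12 [2] 10 b ≠ 0) &&
    (decide (1728 < ev 12 [] 12 b) || decide (vecB 2 b ∈ rowsB))) || decide (vecB 1 b ∈ rowsH)

theorem en_chkB : en chkB 12 0 78 [] = true := by decide +kernel

end Cfsg.Agent.H175.Ore.SymTab
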